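import Cfsg.Agent.Lib.GolU.AutS
import Cfsg.Agent.Lib.Golay.OctStab
import Cfsg.Agent.Lib.Golay.Restr

/-!
Hyperovals of the projective plane of order 4.
-/

set_option autoImplicit false

namespace Cfsg.Agent.Lib.GolU

open Cfsg Finset
open Cfsg.Agent.Lib.Steiner
open scoped Pointwise

variable {α : Type*} [Fintype α] [DecidableEq α] {L : Set (Finset α)}

def Hyp (L : Set (Finset α)) (H : Finset α) : Prop := H.card = 6 ∧ ∀ l ∈ L, (l ∩ H).card ≤ 2

theorem lines_through (hα : Fintype.card α = 21) (hL : IsSteinerSystem 2 5 L) (p : α) :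
    ((blk L).filter (fun b => {p} ⊆ b)).card = 5 := by
  have := card_through hL (P := {p}) (by simp)
  rw [hα, Finset.card_singleton, show 5 - 1 = 4 by rfl, show 21 - 1 = 20 by rfl, show 2 - 1 = 1 by rfl,
    Nat.choose_one_right, Nat.choose_one_right] at this
  omega

theorem line_inter (hα : Fintype.card α = 21) (hL : IsSteinerSystem 2 5 L) {l l' : Finset α} (hl : l ∈ L)
    (hl' : l' ∈ L) (hne : l ≠ l') : (l ∩ l').card = 1 := by
  obtain ⟨h0, _⟩ := par_2_5_21 hα hL hl'
  have := nn_zero_iff h0 hl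
  have h2 : (l ∩ l').card < 2 := by
    by_contra h
    exact hne (block_eq hL hl hl' (by omega))
  omega

theorem hyp_even (hα : Fintype.card α = 21) (hL : IsSteinerSystem 2 5 L) {H : Finset α} (hH : Hyp L H) {l : Finset α}
    (hl : l ∈ L) : (l ∩ H).card = 0 ∨ (l ∩ H).card = 2 := by
  by_cases h0 : (l ∩ H).card = 0
  · exact Or.inl h0
  · right
    obtain ⟨p, hp⟩ : (l ∩ H).Nonempty := by rw [← Finset.card_pos]; omega
    rw [mem_inter] at hp
    have hsum := sum_through (by norm_num : 1 ≤ 2) hL (T := {p}) (by simp) (S := H.erase p)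
      (Finset.disjoint_singleton_right.2 (Finset.notMem_erase _ _))
    rw [Finset.card_erase_of_mem hp.2, hH.1] at hsum
    have h5 := lines_through hα hL p
    have hle : ∀ b ∈ (blk L).filter (fun b => {p} ⊆ b), (b ∩ H.erase p).card ≤ 1 := by
      intro b hb
      rw [mem_filter, mem_blk, Finset.singleton_subset_iff] at hb
      have h1 := hH.2 b hb.1
      have h2 : b ∩ H.erase p = (b ∩ H).erase p := by
        ext x; simp only [mem_inter, mem_erase]; tauto
      rw [h2, Finset.card_erase_of_mem (mem_inter.2 ⟨hb.2, hp.2⟩)]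
      omega
    have hsum' : ∑ b ∈ (blk L).filter (fun b => {p} ⊆ b), (b ∩ H.erase p).card =
        ∑ _b ∈ (blk L).filter (fun b => {p} ⊆ b), 1 := by
      rw [hsum, Finset.sum_const, h5]; rfl
    have h3 := (Finset.sum_eq_sum_iff_of_le hle).1 hsum' l (by
      rw [mem_filter, mem_blk, Finset.singleton_subset_iff]; exact ⟨hl, hp.1⟩)
    have h4 : l ∩ H.erase p = (l ∩ H).erase p := by
      ext x; simp only [mem_inter, mem_erase]; tauto
    rw [h4, Finset.card_erase_of_mem (mem_inter.2 hp)] at h3
    have := hH.2 l hl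
    omega

variable {f : α ⊕ Fin (5 - 2) ≃ GolayPt}

theorem inter_map (s : Finset α) (k : Finset (Fin (5 - 2))) (b : Finset α) :
    ((s.disjSum k).map f.toEmbedding ∩ eb f b).card = (b ∩ s).card + k.card := by
  rw [eb, ← Finset.map_inter, Finset.card_map, exb_inter]; simp

/-- a hyperoval together with two of the extra points is an octad -/
theorem hyp_octad (hα : Fintype.card α = 21) (hL : IsSteinerSystem 2 5 L)
    (hf : ∀ b, b ∈ L ↔ b.card = 2 + 3 ∧ Golay.IsWord (eb f b)) {H : Finset α} (hH : Hyp L H) :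
    ∃ k : Finset (Fin (5 - 2)), k.card = 2 ∧ Golay.IsWord ((H.disjSum k).map f.toEmbedding) := by
  obtain ⟨k, hk, hkw⟩ := exists_perp (t := 2) (f := f) (by norm_num) (by norm_num) hα hL hf
    (v := (H.disjSum ∅).map f.toEmbedding) (by
      intro b hb
      rw [inter_map, Finset.card_empty, add_zero]
      rcases hyp_even hα hL hH hb with h | h <;> rw [h] <;> decide)
  rw [← map_sd, ds_sd] at hkw
  have h3 : symmDiff H ∅ = H := symmDiff_bot _
  have h4 : symmDiff ∅ k = k := bot_symmDiff _
  rw [h3, h4] at hkw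
  refine ⟨k, ?_, hkw⟩
  have h5 := word4 hkw
  rw [Finset.card_map, Finset.card_disjSum, hH.1] at h5
  have := Finset.card_le_univ k
  rw [Fintype.card_fin] at this
  rw [Nat.even_iff] at hk
  omega

theorem mem_map_inl {s : Finset α} {k : Finset (Fin (5 - 2))} {a : α} :
    f (Sum.inl a) ∈ (s.disjSum k).map f.toEmbedding ↔ a ∈ s := by
  rw [mem_map_equiv, Equiv.symm_apply_apply, Finset.inl_mem_disjSum]

theorem mem_map_inr {s : Finset α} {k : Finset (Fin (5 - 2))} {i : Fin (5 - 2)} :
    f (Sum.inr i) ∈ (s.disjSum k).map f.toEmbedding ↔ i ∈ k := by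
  rw [mem_map_equiv, Equiv.symm_apply_apply, Finset.inr_mem_disjSum]

/-- restriction of a permutation preserving the extra points -/
theorem exists_restrict {κ : Type*} [Finite κ] (f : α ⊕ κ ≃ GolayPt) {m : Equiv.Perm GolayPt}
    (hm : ∀ i, ∃ j, m (f (Sum.inr i)) = f (Sum.inr j)) : ∃ φ : Equiv.Perm α, ∀ a, m (f (Sum.inl a)) = f (Sum.inl (φ a)) := by
  choose ρ hρ using hm
  have hinj : Function.Injective ρ := by
    intro i j hij
    have h1 := hρ i
    rw [hij, ← hρ j] at h1
    have := f.injective (m.injective h1)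
    simpa using this
  have hsurj : Function.Surjective ρ := Finite.injective_iff_surjective.1 hinj
  have h1 : ∀ a, ∃ b, m (f (Sum.inl a)) = f (Sum.inl b) := by
    intro a
    obtain ⟨y, hy⟩ := f.surjective (m (f (Sum.inl a)))
    rcases y with b | i
    · exact ⟨b, hy.symm⟩
    · obtain ⟨j, rfl⟩ := hsurj i
      rw [← hρ j] at hy
      have := f.injective (m.injective hy)
      exact absurd this (by simp)
  choose φ hφ using h1
  have hφi : Function.Injective φ := by
    intro a b hab
    have h1 := hφ a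
    rw [hab, ← hφ b] at h1
    have := f.injective (m.injective h1)
    simpa using this
  exact ⟨Equiv.ofBijective φ (Finite.injective_iff_bijective.1 hφi), hφ⟩

theorem restrict_mem_aut (hf : ∀ b, b ∈ L ↔ b.card = 2 + 3 ∧ Golay.IsWord (eb f b)) {m : Equiv.Perm GolayPt}
    (hm : m ∈ M24) (hK : ∀ i, ∃ j, m (f (Sum.inr i)) = f (Sum.inr j)) {φ : Equiv.Perm α}
    (hφ : ∀ a, m (f (Sum.inl a)) = f (Sum.inl (φ a))) : φ ∈ setSystemAut L := by
  rw [mem_aut]
  intro b hb
  rw [hf] at hb ⊢
  rw [Finset.card_smul_finset]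
  refine ⟨hb.1, ?_⟩
  have : eb f (φ • b) = m • eb f b := by
    symm
    apply Finset.eq_of_subset_of_card_le
    · intro x hx
      rw [Finset.mem_smul_finset] at hx
      obtain ⟨y, hy, rfl⟩ := hx
      obtain ⟨z, rfl⟩ := f.surjective y
      rcases z with a | i
      · rw [mem_eb_inl] at hy
        show m (f (Sum.inl a)) ∈ _
        rw [hφ, mem_eb_inl, mem_smul_perm]; exact hy
      · obtain ⟨j, hj⟩ := hK i
        show m (f (Sum.inr i)) ∈ _
        rw [hj]; exact mem_eb_inr
    · rw [Finset.card_smul_finset, eb, eb, Finset.card_map, Finset.card_map, card_exb, card_exb, Finset.card_smul_finset]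
  rw [this]
  exact Golay.IsWord.smul hm hb.2

theorem fix_of_fix (hα : Fintype.card α = 21) (hL : IsSteinerSystem 2 5 L) {H : Finset α} (hH : Hyp L H)
    {g : Equiv.Perm α} (hg : g ∈ setSystemAut L) (hfix : ∀ p ∈ H, g p = p) : g = 1 := by
  ext x
  rw [Equiv.Perm.one_apply]
  by_cases hx : x ∈ H
  · exact hfix x hx
  · have hsum := sum_through (by norm_num : 1 ≤ 2) hL (T := {x}) (by simp) (S := H)
      (Finset.disjoint_singleton_right.2 hx)
    rw [hH.1] at hsum
    -- two secants through x
    have hsec : ∃ l1 ∈ (blk L).filter (fun b => {x} ⊆ b), ∃ l2 ∈ (blk L).filter (fun b => {x} ⊆ b), l1 ≠ l2 ∧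
        (l1 ∩ H).card = 2 ∧ (l2 ∩ H).card = 2 := by
      by_contra hcon
      push Not at hcon
      have hone : (((blk L).filter (fun b => {x} ⊆ b)).filter (fun b => (b ∩ H).card = 2)).card ≤ 1 := by
        rw [Finset.card_le_one]
        intro a ha b hb
        rw [mem_filter] at ha hb
        by_contra hab
        exact hcon a ha.1 b hb.1 hab ha.2 hb.2
      have hval : ∀ b ∈ (blk L).filter (fun b => {x} ⊆ b), (b ∩ H).card = if (b ∩ H).card = 2 then 2 else 0 := by
        intro b hb
        rw [mem_filter, mem_blk] at hb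
        rcases hyp_even hα hL hH hb.1 with h | h <;> simp [h]
      rw [Finset.sum_congr rfl hval, ← Finset.sum_filter, Finset.sum_const, smul_eq_mul] at hsum
      omega
    obtain ⟨l1, h1, l2, h2, hne, hc1, hc2⟩ := hsec
    rw [mem_filter, mem_blk, Finset.singleton_subset_iff] at h1 h2
    have hpres : ∀ l ∈ L, (l ∩ H).card = 2 → g • l = l := by
      intro l hl hc
      have hgl := mem_aut.1 hg l hl
      apply block_eq hL hgl hl
      rw [← hc]
      apply Finset.card_le_card
      intro y hy
      rw [mem_inter] at hy ⊢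
      refine ⟨?_, hy.1⟩
      rw [← hfix y hy.2, mem_smul_perm]; exact hy.1
    have e1 := hpres l1 h1.1 hc1
    have e2 := hpres l2 h2.1 hc2
    have hx1 : g x ∈ l1 := by rw [← e1, mem_smul_perm]; exact h1.2
    have hx2 : g x ∈ l2 := by rw [← e2, mem_smul_perm]; exact h2.2
    have h11 := line_inter hα hL h1.1 h2.1 hne
    rw [Finset.card_eq_one] at h11
    obtain ⟨u, hu⟩ := h11
    have a1 : x ∈ l1 ∩ l2 := mem_inter.2 ⟨h1.2, h2.2⟩
    have a2 : g x ∈ l1 ∩ l2 := mem_inter.2 ⟨hx1, hx2⟩
    rw [hu, mem_singleton] at a1 a2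
    rw [a1] at a2 ⊢
    exact a2

theorem hyp_extend (hα : Fintype.card α = 21) (hL : IsSteinerSystem 2 5 L) {H : Finset α} (hH : Hyp L H)
    (σ : Equiv.Perm ↥H) : ∃ g : Equiv.Perm α, g ∈ setSystemAut L ∧ ∀ p : ↥H, g p = σ p := by
  obtain ⟨f, hf⟩ := exists_embed (t := 2) (by norm_num) (by norm_num) hα hL
  obtain ⟨k, hk2, hkw⟩ := hyp_octad hα hL hf hH
  set E : Finset GolayPt := (H.disjSum ∅).map f.toEmbedding with hE
  have hE6 : E.card = 6 := by rw [hE, Finset.card_map, Finset.card_disjSum, hH.1]; rfl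
  set O : Finset GolayPt := (H.disjSum k).map f.toEmbedding with hO
  have hO8 : O.card = 8 := by rw [hO, Finset.card_map, Finset.card_disjSum, hH.1, hk2]
  have hOo : O ∈ octads := Golay.mem_octads.2 ⟨hkw, hO8⟩
  have hEO : E ⊆ O := by
    intro x hx
    obtain ⟨y, rfl⟩ := f.surjective x
    rcases y with a | i
    · rw [hE, mem_map_inl] at hx; rw [hO, mem_map_inl]; exact hx
    · rw [hE, mem_map_inr] at hx; exact absurd hx (Finset.notMem_empty _)
  -- the permutation on `E`
  let e : ↥H ≃ ↥E := Equiv.ofBijective (fun p => ⟨f (Sum.inl p.1), by rw [hE, mem_map_inl]; exact p.2⟩) (by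
    constructor
    · intro p q hpq
      have := congrArg Subtype.val hpq
      have := f.injective this
      exact Subtype.ext (by simpa using this)
    · rintro ⟨x, hx⟩
      obtain ⟨y, rfl⟩ := f.surjective x
      rcases y with a | i
      · rw [hE, mem_map_inl] at hx
        exact ⟨⟨a, hx⟩, rfl⟩
      · rw [hE, mem_map_inr] at hx; exact absurd hx (Finset.notMem_empty _))
  have he : ∀ p : ↥H, (e p).1 = f (Sum.inl p.1) := fun p => rfl
  obtain ⟨g, hg, hgσ⟩ := Golay.six_perm hE6 ((e.symm.trans σ).trans e)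
  have hgH : ∀ p : ↥H, g (f (Sum.inl p.1)) = f (Sum.inl (σ p).1) := by
    intro p
    have := hgσ (e p)
    rw [he] at this
    rw [this]
    simp [he]
  have hgE : g • E = E := by
    apply Finset.eq_of_subset_of_card_le
    · intro x hx
      rw [Finset.mem_smul_finset] at hx
      obtain ⟨y, hy, rfl⟩ := hx
      obtain ⟨z, rfl⟩ := f.surjective y
      rcases z with a | i
      · rw [hE, mem_map_inl] at hy
        show g (f (Sum.inl a)) ∈ E
        rw [hgH ⟨a, hy⟩, hE, mem_map_inl]; exact (σ _).2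
      · rw [hE, mem_map_inr] at hy; exact absurd hy (Finset.notMem_empty _)
    · rw [Finset.card_smul_finset]
  have hgO : g • O = O := by
    apply Golay.octad_eq (Golay.smul_mem_octads hg hOo) hOo
    have : E ⊆ g • O ∩ O := by
      apply Finset.subset_inter _ hEO
      rw [← hgE]; exact Finset.smul_finset_subset_smul_finset hEO
    have := Finset.card_le_card this
    omega
  -- the remaining extra point
  obtain ⟨c, hc⟩ : ∃ c : Fin (5 - 2), c ∉ k := by
    by_contra hcon
    push Not at hcon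
    have : k = univ := by ext x; simp [hcon x]
    rw [this] at hk2
    simp at hk2
  have hcO : f (Sum.inr c) ∉ O := by rw [hO, mem_map_inr]; exact hc
  have hgc : g (f (Sum.inr c)) ∉ O := by
    rw [← hgO, mem_smul_perm]; exact hcO
  obtain ⟨g', hg', hfix, hgg⟩ := Golay.fixOct_trans hOo hgc hcO
  have hfixO : ∀ x ∈ O, g' x = x := hfix
  have hmO : ∀ x ∈ O, (g' * g) x = g x := by
    intro x hx
    rw [Equiv.Perm.mul_apply]
    apply hfixO
    rw [← hgO, mem_smul_perm]; exact hx
  have hK : ∀ i, ∃ j, (g' * g) (f (Sum.inr i)) = f (Sum.inr j) := by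
    intro i
    by_cases hik : i ∈ k
    · have hiO : f (Sum.inr i) ∈ O := by rw [hO, mem_map_inr]; exact hik
      rw [hmO _ hiO]
      have h1 : g (f (Sum.inr i)) ∈ O := by
        have : g (f (Sum.inr i)) ∈ g • O := by rw [mem_smul_perm]; exact hiO
        rwa [hgO] at this
      have h2 : g (f (Sum.inr i)) ∉ E := by
        rw [← hgE, mem_smul_perm, hE, mem_map_inr]
        exact Finset.notMem_empty _
      obtain ⟨z, hz⟩ := f.surjective (g (f (Sum.inr i)))
      rcases z with a | j
      · exfalso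
        rw [← hz, hO, mem_map_inl] at h1
        rw [← hz, hE, mem_map_inl] at h2
        exact h2 h1
      · exact ⟨j, hz.symm⟩
    · have hic : i = c := by
        have h1 : ∀ (k : Finset (Fin 3)) (i c : Fin 3), k.card = 2 → i ∉ k → c ∉ k → i = c := by decide
        exact h1 k i c hk2 hik hc
      refine ⟨c, ?_⟩
      rw [hic, Equiv.Perm.mul_apply, hgg]
  obtain ⟨φ, hφ⟩ := exists_restrict f hK
  refine ⟨φ, restrict_mem_aut hf (M24.mul_mem hg' hg) hK hφ, ?_⟩
  intro p
  have hpO : f (Sum.inl p.1) ∈ O := by rw [hO, mem_map_inl]; exact p.2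
  have h1 := hφ p.1
  rw [hmO _ hpO, hgH] at h1
  have := f.injective h1
  simpa using this.symm

end Cfsg.Agent.Lib.GolU
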