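import Cfsg.Agent.Lib.GolU.PG24

/-!
Quadrangles and hyperovals of the projective plane of order 4: counting.
-/

set_option autoImplicit false

namespace Cfsg.Agent.Lib.GolU

open Cfsg Finset
open Cfsg.Agent.Lib.Steiner
open scoped Pointwise

variable {α : Type*} [Fintype α] [DecidableEq α] {L : Set (Finset α)}

def Ind4 (L : Set (Finset α)) (S : Finset α) : Prop := S.card = 4 ∧ ∀ l ∈ L, (l ∩ S).card ≤ 2

theorem hyp_unique (hα : Fintype.card α = 21) (hL : IsSteinerSystem 2 5 L) {H H' S : Finset α} (hH : Hyp L H)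
    (hH' : Hyp L H') (hS : S.card = 4) (h1 : S ⊆ H) (h2 : S ⊆ H') : H = H' := by
  obtain ⟨f, hf⟩ := exists_embed (t := 2) (by norm_num) (by norm_num) hα hL
  obtain ⟨k, hk2, hkw⟩ := hyp_octad hα hL hf hH
  obtain ⟨k', hk2', hkw'⟩ := hyp_octad hα hL hf hH'
  have hkk : 1 ≤ (k ∩ k').card := by
    have h3 := Finset.card_union_add_card_inter k k'
    have h4 := Finset.card_le_univ (k ∪ k')
    rw [Fintype.card_fin] at h4
    omega
  have heq : (H.disjSum k).map f.toEmbedding = (H'.disjSum k').map f.toEmbedding := by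
    apply golGF.octad_eq (mem_golFam.2 hkw) (mem_golFam.2 hkw')
    · rw [Finset.card_map, Finset.card_disjSum, hH.1, hk2]
    · rw [Finset.card_map, Finset.card_disjSum, hH'.1, hk2']
    · rw [← Finset.map_inter, Finset.card_map, ds_inter, Finset.card_disjSum]
      have := Finset.card_le_card (Finset.subset_inter h1 h2)
      omega
  ext a
  rw [← mem_map_inl (f := f) (k := k), heq, mem_map_inl]

theorem part_eq (f : α ⊕ Fin (5 - 2) ≃ GolayPt) (D : Finset GolayPt) :
    (((Finset.univ.filter (fun a => f (Sum.inl a) ∈ D)).disjSum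
      (Finset.univ.filter (fun i => f (Sum.inr i) ∈ D))).map f.toEmbedding) = D := by
  apply ext_f (f := f)
  · intro a; rw [mem_map_inl]; simp
  · intro i; rw [mem_map_inr]; simp

theorem exists_line (hL : IsSteinerSystem 2 5 L) {a b : α} (hab : a ≠ b) : ∃ l ∈ L, a ∈ l ∧ b ∈ l := by
  obtain ⟨l, ⟨h1, h2⟩, _⟩ := hL.2 {a, b} (Finset.card_pair hab)
  exact ⟨l, h1, h2 (by simp), h2 (by simp)⟩

/-- the diagonal point lies in the tetrad -/
theorem diag_mem (hα : Fintype.card α = 21) (hL : IsSteinerSystem 2 5 L) {f : α ⊕ Fin (5 - 2) ≃ GolayPt}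
    (hf : ∀ b, b ∈ L ↔ b.card = 2 + 3 ∧ Golay.IsWord (eb f b)) {S : Finset α} (hS : Ind4 L S) {T : Finset GolayPt}
    (hT : T ∈ tet golFam ((S.disjSum ∅).map f.toEmbedding)) (hdis : Disjoint ((S.disjSum ∅).map f.toEmbedding) T)
    (hk : (Finset.univ.filter (fun i => f (Sum.inr i) ∈ T)).card = 1)
    {a b c d : α} (hab : a ≠ b) (hcd : c ≠ d) (hac : a ≠ c) (had : a ≠ d) (hbc : b ≠ c) (hbd : b ≠ d)
    (ha : a ∈ S) (hb : b ∈ S) (hc : c ∈ S) (hd : d ∈ S) {l1 l2 : Finset α} (hl1 : l1 ∈ L) (hl2 : l2 ∈ L)
    (ha1 : a ∈ l1) (hb1 : b ∈ l1) (hc2 : c ∈ l2) (hd2 : d ∈ l2) {u : α} (hu1 : u ∈ l1) (hu2 : u ∈ l2) :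
    f (Sum.inl u) ∈ T := by
  set E : Finset GolayPt := (S.disjSum ∅).map f.toEmbedding with hE
  have hE4 : E.card = 4 := by rw [hE, Finset.card_map, Finset.card_disjSum, hS.1]; rfl
  have hTm := mem_tet.1 hT
  set D := symmDiff E T with hD
  have hD8 : D.card = 8 := by
    have := card_sd E T
    rw [← hD, Finset.disjoint_iff_inter_eq_empty.1 hdis, Finset.card_empty] at this; omega
  have hDw : Golay.IsWord D := mem_golFam.1 hTm.2
  set F : Finset α := Finset.univ.filter (fun a => f (Sum.inl a) ∈ D) with hF
  set K : Finset (Fin (5 - 2)) := Finset.univ.filter (fun i => f (Sum.inr i) ∈ D) with hK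
  have hpart : (F.disjSum K).map f.toEmbedding = D := part_eq f D
  have hK1 : K.card = 1 := by
    rw [← hk]; congr 1; ext i
    simp only [hK, mem_filter, mem_univ, true_and, hD, mem_symmDiff, hE, mem_map_inr]
    simp
  have hF7 : F.card = 7 := by
    have : (F.disjSum K).card = 8 := by rw [← Finset.card_map f.toEmbedding, hpart, hD8]
    rw [Finset.card_disjSum, hK1] at this; omega
  have hSF : S ⊆ F := by
    intro x hx
    simp only [hF, mem_filter, mem_univ, true_and, hD, mem_symmDiff]
    have h1 : f (Sum.inl x) ∈ E := by rw [hE, mem_map_inl]; exact hx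
    exact Or.inl ⟨h1, fun h => Finset.disjoint_left.1 hdis h1 h⟩
  have hodd : ∀ l ∈ L, (l ∩ F).card % 2 = 1 := by
    intro l hl
    have h1 := golGF.even (mem_golFam.2 hDw) (mem_golFam.2 ((hf l).1 hl).2)
    rw [← hpart, inter_map, hK1, Nat.even_iff] at h1
    omega
  have h3 : ∀ l ∈ L, ∀ x ∈ S, ∀ y ∈ S, x ≠ y → x ∈ l → y ∈ l → 3 ≤ (l ∩ F).card := by
    intro l hl x hx y hy hxy hxl hyl
    have h1 := hodd l hl
    have h2 : ({x, y} : Finset α) ⊆ l ∩ F := by
      intro z hz
      rcases mem_insert.1 hz with rfl | hz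
      · exact mem_inter.2 ⟨hxl, hSF hx⟩
      · rw [mem_singleton.1 hz]; exact mem_inter.2 ⟨hyl, hSF hy⟩
    have := Finset.card_le_card h2
    rw [Finset.card_pair hxy] at this; omega
  have hpairS : ∀ l ∈ L, ∀ x ∈ S, ∀ y ∈ S, x ≠ y → x ∈ l → y ∈ l → ∀ z ∈ S, z ∈ l → z = x ∨ z = y := by
    intro l hl x hx y hy hxy hxl hyl z hz hzl
    have h2 : ({x, y} : Finset α) ⊆ l ∩ S := by
      intro w hw
      rcases mem_insert.1 hw with rfl | hw
      · exact mem_inter.2 ⟨hxl, hx⟩
      · rw [mem_singleton.1 hw]; exact mem_inter.2 ⟨hyl, hy⟩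
    have h4 : ({x, y} : Finset α) = l ∩ S := by
      apply Finset.eq_of_subset_of_card_le h2
      rw [Finset.card_pair hxy]; exact hS.2 l hl
    have h5 : z ∈ l ∩ S := mem_inter.2 ⟨hzl, hz⟩
    rw [← h4] at h5
    simpa using h5
  have hl12 : l1 ≠ l2 := by
    rintro rfl
    rcases hpairS l1 hl1 a ha b hb hab ha1 hb1 c hc hc2 with h | h
    · exact hac h.symm
    · exact hbc h.symm
  have huF : u ∈ F := by
    by_contra huF
    have hsum := sum_through (by norm_num : 1 ≤ 2) hL (T := {u}) (by simp) (S := F)
      (Finset.disjoint_singleton_right.2 huF)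
    rw [hF7] at hsum
    have h5 := lines_through hα hL u
    set s := (blk L).filter (fun b => {u} ⊆ b) with hs
    have hm1 : l1 ∈ s := by rw [hs, mem_filter, mem_blk, Finset.singleton_subset_iff]; exact ⟨hl1, hu1⟩
    have hm2 : l2 ∈ s.erase l1 := by
      rw [mem_erase, hs, mem_filter, mem_blk, Finset.singleton_subset_iff]; exact ⟨hl12.symm, hl2, hu2⟩
    rw [← Finset.add_sum_erase s _ hm1, ← Finset.add_sum_erase (s.erase l1) _ hm2] at hsum
    have hc3 : ((s.erase l1).erase l2).card = 3 := by
      rw [Finset.card_erase_of_mem hm2, Finset.card_erase_of_mem hm1, h5]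
    have hge : 3 ≤ ∑ l ∈ (s.erase l1).erase l2, (l ∩ F).card := by
      rw [← hc3, Finset.card_eq_sum_ones]
      apply Finset.sum_le_sum
      intro l hl
      have : l ∈ s := Finset.mem_of_mem_erase (Finset.mem_of_mem_erase hl)
      rw [hs, mem_filter, mem_blk] at this
      have := hodd l this.1
      omega
    have e1 := h3 l1 hl1 a ha b hb hab ha1 hb1
    have e2 := h3 l2 hl2 c hc d hd hcd hc2 hd2
    omega
  simp only [hF, mem_filter, mem_univ, true_and, hD, mem_symmDiff] at huF
  rcases huF with ⟨h1, _⟩ | ⟨h1, _⟩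
  · exfalso
    rw [hE, mem_map_inl] at h1
    rcases hpairS l1 hl1 a ha b hb hab ha1 hb1 u h1 hu1 with rfl | rfl
    · rcases hpairS l2 hl2 c hc d hd hcd hc2 hd2 u h1 hu2 with h | h
      · exact hac h
      · exact had h
    · rcases hpairS l2 hl2 c hc d hd hcd hc2 hd2 u h1 hu2 with h | h
      · exact hbc h
      · exact hbd h
  · exact h1

theorem exists_hyp (hα : Fintype.card α = 21) (hL : IsSteinerSystem 2 5 L) {S : Finset α} (hS : Ind4 L S) :
    ∃ H, Hyp L H ∧ S ⊆ H := by
  obtain ⟨f, hf⟩ := exists_embed (t := 2) (by norm_num) (by norm_num) hα hL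
  set E : Finset GolayPt := (S.disjSum ∅).map f.toEmbedding with hE
  have hE4 : E.card = 4 := by rw [hE, Finset.card_map, Finset.card_disjSum, hS.1]; rfl
  have h6 := golGF.tet_card hE4
  have hEE := golGF.self_tet hE4
  have hinrE : ∀ i, f (Sum.inr i) ∉ E := by
    intro i hi; rw [hE, mem_map_inr] at hi; exact absurd hi (Finset.notMem_empty _)
  have hT : ∀ i : Fin (5 - 2), ∃ T ∈ tet golFam E, f (Sum.inr i) ∈ T := fun i => golGF.tet_cover h6 _
  choose T hT hiT using hT
  have hTE : ∀ i, T i ≠ E := by
    intro i h; have := hiT i; rw [h] at this; exact hinrE i this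
  have hdis : ∀ i, Disjoint E (T i) := fun i => golGF.tet_disj hEE (hT i) (hTE i).symm
  have hmemT : ∀ i j, f (Sum.inr j) ∈ T i ↔ T i = T j := by
    intro i j
    constructor
    · intro h
      by_contra hne
      exact Finset.disjoint_left.1 (golGF.tet_disj (hT i) (hT j) hne) h (hiT j)
    · intro h; rw [h]; exact hiT j
  -- a tetrad containing exactly two of the extra points
  have key : ∀ i, (Finset.univ.filter (fun j => f (Sum.inr j) ∈ T i)).card = 2 → ∃ H, Hyp L H ∧ S ⊆ H := by
    intro i hk
    set D := symmDiff E (T i) with hD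
    have hD8 : D.card = 8 := by
      have := card_sd E (T i)
      rw [← hD, Finset.disjoint_iff_inter_eq_empty.1 (hdis i), Finset.card_empty, (mem_tet.1 (hT i)).1] at this; omega
    have hDw : Golay.IsWord D := mem_golFam.1 (mem_tet.1 (hT i)).2
    set F : Finset α := Finset.univ.filter (fun a => f (Sum.inl a) ∈ D) with hF
    set K : Finset (Fin (5 - 2)) := Finset.univ.filter (fun i => f (Sum.inr i) ∈ D) with hK
    have hpart : (F.disjSum K).map f.toEmbedding = D := part_eq f D
    have hK2 : K.card = 2 := by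
      refine Eq.trans ?_ hk
      congr 1; ext j
      simp only [hK, mem_filter, mem_univ, true_and, hD, mem_symmDiff]
      have := hinrE j
      tauto
    have hF6 : F.card = 6 := by
      have : (F.disjSum K).card = 8 := by rw [← Finset.card_map f.toEmbedding, hpart, hD8]
      rw [Finset.card_disjSum, hK2] at this; omega
    refine ⟨F, ⟨hF6, ?_⟩, ?_⟩
    · intro l hl
      have hlw := ((hf l).1 hl).2
      have hl8 : (eb f l).card = 8 := by rw [eb, Finset.card_map, card_exb, hL.1 l hl]
      have h1 := inter_map (f := f) F K l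
      rw [hpart, hK2] at h1
      by_contra hcon
      have heq : D = eb f l := golGF.octad_eq (mem_golFam.2 hDw) (mem_golFam.2 hlw) hD8 hl8 (by
        show 5 ≤ (D ∩ eb f l).card; omega)
      have hKu : K = univ := by
        ext j
        simp only [hK, mem_filter, mem_univ, true_and]
        rw [heq]; simp only [iff_true]; exact mem_eb_inr
      rw [hKu] at hK2
      simp at hK2
    · intro x hx
      simp only [hF, mem_filter, mem_univ, true_and, hD, mem_symmDiff]
      have h1 : f (Sum.inl x) ∈ E := by rw [hE, mem_map_inl]; exact hx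
      exact Or.inl ⟨h1, fun h => Finset.disjoint_left.1 (hdis i) h1 h⟩
  have hcase : ∀ (r : Fin 3 → Fin 3 → Prop), (∀ i, r i i) → (∀ i j, r i j → r j i) →
      (∀ i j k, r i j → r j k → r i k) → (∀ i j, r i j) ∨ (∀ i j, r i j → i = j) ∨
        ∃ i j k, i ≠ j ∧ i ≠ k ∧ j ≠ k ∧ r i j ∧ ¬ r i k := by
    intro r h1 h2 h3
    by_cases h01 : r 0 1
    · by_cases h02 : r 0 2
      · left
        have h0 : ∀ i, r 0 i := by
          intro i; fin_cases i
          · exact h1 0
          · exact h01
          · exact h02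
        exact fun i j => h3 i 0 j (h2 0 i (h0 i)) (h0 j)
      · exact Or.inr (Or.inr ⟨0, 1, 2, by decide, by decide, by decide, h01, h02⟩)
    · by_cases h02 : r 0 2
      · exact Or.inr (Or.inr ⟨0, 2, 1, by decide, by decide, by decide, h02, h01⟩)
      · by_cases h12 : r 1 2
        · exact Or.inr (Or.inr ⟨1, 2, 0, by decide, by decide, by decide, h12, fun h => h01 (h2 _ _ h)⟩)
        · right; left
          intro i j hij
          fin_cases i <;> fin_cases j
          · rfl
          · exact absurd hij h01
          · exact absurd hij h02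
          · exact absurd (h2 _ _ hij) h01
          · rfl
          · exact absurd hij h12
          · exact absurd (h2 _ _ hij) h02
          · exact absurd (h2 _ _ hij) h12
          · rfl
  rcases hcase (fun i j => T i = T j) (fun _ => rfl) (fun _ _ h => h.symm) (fun _ _ _ h h' => h.trans h') with
    hall | hnone | ⟨i, j, k, hij, hik, hjk, h1, h2⟩
  · -- all three in one tetrad: a line containing S
    exfalso
    set D := symmDiff E (T 0) with hD
    have hD8 : D.card = 8 := by
      have := card_sd E (T 0)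
      rw [← hD, Finset.disjoint_iff_inter_eq_empty.1 (hdis 0), Finset.card_empty, (mem_tet.1 (hT 0)).1] at this; omega
    have hDw : Golay.IsWord D := mem_golFam.1 (mem_tet.1 (hT 0)).2
    set F : Finset α := Finset.univ.filter (fun a => f (Sum.inl a) ∈ D) with hF
    have hFe : eb f F = D := by
      apply ext_f (f := f)
      · intro a; rw [mem_eb_inl]; simp [hF]
      · intro i
        simp only [mem_eb_inr, true_iff]
        rw [hD, mem_symmDiff]
        exact Or.inr ⟨(hmemT 0 i).2 (hall 0 i), hinrE i⟩
    have hF5 : F.card = 5 := by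
      have : (eb f F).card = 8 := by rw [hFe, hD8]
      rw [eb, Finset.card_map, card_exb] at this; omega
    have hFL : F ∈ L := by rw [hf]; exact ⟨hF5, by rw [← hFe] at hDw; exact hDw⟩
    have h1 := hS.2 F hFL
    have h2 : S ⊆ F := by
      intro x hx
      simp only [hF, mem_filter, mem_univ, true_and, hD, mem_symmDiff]
      have h1 : f (Sum.inl x) ∈ E := by rw [hE, mem_map_inl]; exact hx
      exact Or.inl ⟨h1, fun h => Finset.disjoint_left.1 (hdis 0) h1 h⟩
    rw [Finset.inter_eq_right.2 h2, hS.1] at h1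
    omega
  · exfalso
    have hk1 : ∀ i, (Finset.univ.filter (fun j => f (Sum.inr j) ∈ T i)).card = 1 := by
      intro i
      rw [Finset.card_eq_one]
      refine ⟨i, ?_⟩
      ext j
      simp only [mem_filter, mem_univ, true_and, mem_singleton]
      rw [hmemT]
      exact ⟨fun h => (hnone i j h).symm, fun h => by rw [h]⟩
    obtain ⟨a, b, c, d, hab, hac, had, hbc, hbd, hcd, hSe⟩ := Finset.card_eq_four.1 hS.1
    have ha : a ∈ S := by rw [hSe]; simp
    have hb : b ∈ S := by rw [hSe]; simp
    have hc : c ∈ S := by rw [hSe]; simp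
    have hd : d ∈ S := by rw [hSe]; simp
    obtain ⟨l1, hl1, ha1, hb1⟩ := exists_line hL hab
    obtain ⟨l2, hl2, hc2, hd2⟩ := exists_line hL hcd
    have hl12 : l1 ≠ l2 := by
      rintro rfl
      have h1 := hS.2 l1 hl1
      have h2 : S ⊆ l1 := by
        rw [hSe]; intro x hx
        simp only [mem_insert, mem_singleton] at hx
        rcases hx with rfl | rfl | rfl | rfl <;> assumption
      rw [Finset.inter_eq_right.2 h2, hS.1] at h1
      omega
    have hu := line_inter hα hL hl1 hl2 hl12
    rw [Finset.card_eq_one] at hu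
    obtain ⟨u, hu⟩ := hu
    have hu' : u ∈ l1 ∩ l2 := by rw [hu]; exact mem_singleton_self _
    rw [mem_inter] at hu'
    have e0 := diag_mem hα hL hf hS (hT 0) (hdis 0) (hk1 0) hab hcd hac had hbc hbd ha hb hc hd hl1 hl2 ha1 hb1 hc2 hd2 hu'.1 hu'.2
    have e1 := diag_mem hα hL hf hS (hT 1) (hdis 1) (hk1 1) hab hcd hac had hbc hbd ha hb hc hd hl1 hl2 ha1 hb1 hc2 hd2 hu'.1 hu'.2
    have hne : T 0 ≠ T 1 := fun h => absurd (hnone 0 1 h) (by decide)
    exact Finset.disjoint_left.1 (golGF.tet_disj (hT 0) (hT 1) hne) e0 e1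
  · apply key i
    have : (Finset.univ.filter (fun l => f (Sum.inr l) ∈ T i)) = {i, j} := by
      ext l
      simp only [mem_filter, mem_univ, true_and, mem_insert, mem_singleton]
      rw [hmemT]
      constructor
      · intro h
        by_contra hcon
        push Not at hcon
        have hlk : l = k := by
          have h3 : ∀ i j k : Fin 3, i ≠ j → i ≠ k → j ≠ k → ∀ l : Fin 3, l = i ∨ l = j ∨ l = k := by decide
          rcases h3 i j k hij hik hjk l with h | h | h
          · exact absurd h hcon.1
          · exact absurd h hcon.2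
          · exact h
        rw [hlk] at h
        exact h2 h
      · rintro (rfl | rfl)
        · rfl
        · exact h1
    rw [this, Finset.card_pair hij]

theorem card_lines (hα : Fintype.card α = 21) (hL : IsSteinerSystem 2 5 L) : (blk L).card = 21 := by
  have := card_through hL (P := ∅) (by simp)
  rw [hα] at this
  simp only [Finset.card_empty, Finset.empty_subset, Finset.filter_true, Nat.sub_zero] at this
  rw [show Nat.choose 5 2 = 10 by decide, show Nat.choose 21 2 = 210 by decide] at this
  omega

/-- number of 4-sets with at least three points on a line -/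
theorem card_bad (hα : Fintype.card α = 21) {l : Finset α} (hl : l.card = 5) :
    ((Finset.powersetCard 4 (Finset.univ : Finset α)).filter (fun S => 3 ≤ (l ∩ S).card)).card = 165 := by
  have h4 : ((Finset.powersetCard 4 (Finset.univ : Finset α)).filter (fun S => (l ∩ S).card = 4)).card = 5 := by
    have : (Finset.powersetCard 4 (Finset.univ : Finset α)).filter (fun S => (l ∩ S).card = 4) = Finset.powersetCard 4 l := by
      ext S
      rw [mem_filter, mem_powersetCard, mem_powersetCard]
      constructor
      · rintro ⟨⟨_, h1⟩, h2⟩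
        refine ⟨?_, h1⟩
        have : l ∩ S = S := Finset.eq_of_subset_of_card_le Finset.inter_subset_right (by omega)
        rw [← this]; exact Finset.inter_subset_left
      · rintro ⟨h1, h2⟩
        exact ⟨⟨Finset.subset_univ _, h2⟩, by rw [Finset.inter_eq_right.2 h1, h2]⟩
    rw [this, Finset.card_powersetCard, hl]; decide
  -- double counting of triples
  have h180 : ∑ S ∈ Finset.powersetCard 4 (Finset.univ : Finset α), (l ∩ S).card.choose 3 = 180 := by
    have h1 := Finset.sum_card_bipartiteAbove_eq_sum_card_bipartiteBelow (fun (S A : Finset α) => A ⊆ S)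
      (s := Finset.powersetCard 4 (Finset.univ : Finset α)) (t := l.powersetCard 3)
    have h2 : ∀ S ∈ Finset.powersetCard 4 (Finset.univ : Finset α),
        (Finset.bipartiteAbove (fun (S A : Finset α) => A ⊆ S) (l.powersetCard 3) S).card = (l ∩ S).card.choose 3 := by
      intro S _
      rw [← Finset.card_powersetCard]
      congr 1
      ext A
      simp only [Finset.bipartiteAbove, mem_filter, mem_powersetCard, Finset.subset_inter_iff]
      tauto
    have h3 : ∀ A ∈ l.powersetCard 3, (Finset.bipartiteBelow (fun (S A : Finset α) => A ⊆ S)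
        (Finset.powersetCard 4 (Finset.univ : Finset α)) A).card = 18 := by
      intro A hA
      rw [mem_powersetCard] at hA
      have := card_between (P := A) (b := Finset.univ) (Finset.subset_univ _) (t := 4) (by omega)
      rw [Finset.card_univ, hα, hA.2, show 21 - 3 = 18 by rfl, show 4 - 3 = 1 by rfl, Nat.choose_one_right] at this
      rw [← this]
      congr 1
      ext S
      simp only [Finset.bipartiteBelow, mem_filter, mem_powersetCard, mem_powerset]
      tauto
    rw [Finset.sum_congr rfl h2, Finset.sum_congr rfl h3, Finset.sum_const, Finset.card_powersetCard, hl] at h1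
    rw [h1]; decide
  have hval : ∀ S ∈ Finset.powersetCard 4 (Finset.univ : Finset α), (l ∩ S).card.choose 3 =
      (if 3 ≤ (l ∩ S).card then 1 else 0) + 3 * (if (l ∩ S).card = 4 then 1 else 0) := by
    intro S hS
    have h1 : (l ∩ S).card ≤ 4 := by
      rw [← (mem_powersetCard.1 hS).2]; exact Finset.card_le_card Finset.inter_subset_right
    interval_cases (l ∩ S).card <;> decide
  rw [Finset.sum_congr rfl hval, Finset.sum_add_distrib, ← Finset.mul_sum, ← Finset.card_filter, ← Finset.card_filter, h4] at h180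
  omega

open Classical in
theorem card_ind4 (hα : Fintype.card α = 21) (hL : IsSteinerSystem 2 5 L) :
    ((Finset.univ : Finset (Finset α)).filter (fun S => Ind4 L S)).card = 2520 := by
  have h1 : ((Finset.powersetCard 4 (Finset.univ : Finset α)).filter (fun S => ¬ Ind4 L S)) =
      (blk L).biUnion (fun l => (Finset.powersetCard 4 (Finset.univ : Finset α)).filter (fun S => 3 ≤ (l ∩ S).card)) := by
    ext S
    rw [mem_filter, mem_biUnion]
    constructor
    · rintro ⟨h1, h2⟩
      unfold Ind4 at h2
      push Not at h2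
      obtain ⟨l, hl, h3⟩ := h2 (mem_powersetCard.1 h1).2
      exact ⟨l, mem_blk.2 hl, mem_filter.2 ⟨h1, by omega⟩⟩
    · rintro ⟨l, hl, h2⟩
      rw [mem_filter] at h2
      refine ⟨h2.1, fun h3 => ?_⟩
      have := h3.2 l (mem_blk.1 hl)
      omega
  have h2 : ((Finset.powersetCard 4 (Finset.univ : Finset α)).filter (fun S => ¬ Ind4 L S)).card = 21 * 165 := by
    rw [h1, Finset.card_biUnion]
    · rw [Finset.sum_congr rfl (g := fun _ => 165) (fun l hl => card_bad hα (hL.1 l (mem_blk.1 hl)))]
      rw [Finset.sum_const, card_lines hα hL, smul_eq_mul]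
    · intro l hl l' hl' hne
      show Disjoint _ _
      rw [Finset.disjoint_left]
      intro S hS hS'
      rw [mem_filter] at hS hS'
      have h3 := line_inter hα hL (mem_blk.1 hl) (mem_blk.1 hl') hne
      have h4 := Finset.card_union_add_card_inter (l ∩ S) (l' ∩ S)
      have h5 : ((l ∩ S) ∪ (l' ∩ S)).card ≤ S.card := Finset.card_le_card (Finset.union_subset Finset.inter_subset_right Finset.inter_subset_right)
      have h6 : ((l ∩ S) ∩ (l' ∩ S)).card ≤ (l ∩ l').card := by
        apply Finset.card_le_card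
        intro x hx
        simp only [mem_inter] at hx ⊢
        exact ⟨hx.1.1, hx.2.1⟩
      have h7 := (mem_powersetCard.1 hS.1).2
      omega
  have h3 := Finset.card_filter_add_card_filter_not (s := Finset.powersetCard 4 (Finset.univ : Finset α)) (fun S => Ind4 L S)
  rw [h2, Finset.card_powersetCard, Finset.card_univ, hα, show Nat.choose 21 4 = 5985 by decide] at h3
  have h4 : ((Finset.univ : Finset (Finset α)).filter (fun S => Ind4 L S)) =
      (Finset.powersetCard 4 (Finset.univ : Finset α)).filter (fun S => Ind4 L S) := by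
    ext S
    rw [mem_filter, mem_filter, mem_powersetCard]
    constructor
    · rintro ⟨_, h⟩; exact ⟨⟨Finset.subset_univ _, h.1⟩, h⟩
    · rintro ⟨_, h⟩; exact ⟨mem_univ _, h⟩
  rw [h4]; omega

open Classical in
theorem card_hyp (hα : Fintype.card α = 21) (hL : IsSteinerSystem 2 5 L) :
    ((Finset.univ : Finset (Finset α)).filter (fun H => Hyp L H)).card = 168 := by
  have h1 := Finset.sum_card_bipartiteAbove_eq_sum_card_bipartiteBelow (fun (H S : Finset α) => S ⊆ H)
    (s := (Finset.univ : Finset (Finset α)).filter (fun H => Hyp L H))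
    (t := (Finset.univ : Finset (Finset α)).filter (fun S => Ind4 L S))
  have h2 : ∀ H ∈ (Finset.univ : Finset (Finset α)).filter (fun H => Hyp L H),
      (Finset.bipartiteAbove (fun (H S : Finset α) => S ⊆ H)
        ((Finset.univ : Finset (Finset α)).filter (fun S => Ind4 L S)) H).card = 15 := by
    intro H hH
    rw [mem_filter] at hH
    have : Finset.bipartiteAbove (fun (H S : Finset α) => S ⊆ H)
        ((Finset.univ : Finset (Finset α)).filter (fun S => Ind4 L S)) H = H.powersetCard 4 := by
      ext S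
      simp only [Finset.bipartiteAbove, mem_filter, mem_univ, true_and, mem_powersetCard]
      constructor
      · rintro ⟨h1, h2⟩; exact ⟨h2, h1.1⟩
      · rintro ⟨h1, h2⟩
        refine ⟨⟨h2, fun l hl => ?_⟩, h1⟩
        exact (Finset.card_le_card (Finset.inter_subset_inter (Finset.Subset.refl l) h1)).trans (hH.2.2 l hl)
    rw [this, Finset.card_powersetCard, hH.2.1]; decide
  have h3 : ∀ S ∈ (Finset.univ : Finset (Finset α)).filter (fun S => Ind4 L S),
      (Finset.bipartiteBelow (fun (H S : Finset α) => S ⊆ H)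
        ((Finset.univ : Finset (Finset α)).filter (fun H => Hyp L H)) S).card = 1 := by
    intro S hS
    rw [mem_filter] at hS
    obtain ⟨H, hH, hSH⟩ := exists_hyp hα hL hS.2
    rw [Finset.card_eq_one]
    refine ⟨H, ?_⟩
    ext H'
    simp only [Finset.bipartiteBelow, mem_filter, mem_univ, true_and, mem_singleton]
    constructor
    · rintro ⟨h1, h2⟩; exact hyp_unique hα hL h1 hH hS.2.1 h2 hSH
    · rintro rfl; exact ⟨hH, hSH⟩
  rw [Finset.sum_congr rfl h2, Finset.sum_congr rfl h3, Finset.sum_const, Finset.sum_const, card_ind4 hα hL] at h1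
  simp only [smul_eq_mul] at h1
  omega

end Cfsg.Agent.Lib.GolU
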